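import Mathlib
import Cfsg.Agent.Lib.Helper8.OFus.Defs

/-!
# S2720 / S2721, package NORM (helper72)

On an irreducible `A`-invariant subspace `W` over a finite field `F`, the determinants of the
restrictions `p(A)|W`, `p ∈ F[X]`, take every value of `F`: `W ≅ F[X] ⧸ ann A W =: K` as
`F[X]`-modules, `det (p(A)|W)` is the norm of the class of `p`, and the norm of a finite
extension of finite fields is surjective.
-/

set_option autoImplicit false

namespace Cfsg.Agent.Lib.Helper72.OFus

open Polynomial Module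
open Cfsg.Agent.Lib.Helper8.WallBasic Cfsg.Agent.Lib.Helper8.OFus

universe u

variable {F : Type u} [Field F] {V : Type u} [AddCommGroup V] [Module F V]

theorem restrict_pow_apply {A : V →ₗ[F] V} {W : Submodule F V} (hU : Inv A W) (n : ℕ) :
    ∀ w : W, (((A.restrict hU) ^ n) w : V) = (A ^ n) w := by
  induction n with
  | zero => intro w; simp
  | succ n ih =>
    intro w
    rw [pow_succ, pow_succ, Module.End.mul_apply, Module.End.mul_apply, ih]
    rfl

/-- `p(A|W) = p(A)|W`. -/
theorem aeval_restrict_apply {A : V →ₗ[F] V} {W : Submodule F V} (hU : Inv A W) (p : F[X])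
    (w : W) : ((aeval (A.restrict hU) p) w : V) = aeval A p w := by
  induction p using Polynomial.induction_on' with
  | add p q hp hq =>
    rw [map_add, map_add, LinearMap.add_apply, LinearMap.add_apply, Submodule.coe_add, hp, hq]
  | monomial n c =>
    rw [aeval_monomial, aeval_monomial, Module.End.mul_apply, Module.End.mul_apply,
      Module.algebraMap_end_apply, Module.algebraMap_end_apply, Submodule.coe_smul,
      restrict_pow_apply]

/-- Package NORM. -/
theorem pkgNorm : PkgNorm.{u} := by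
  intro F _ _ V _ _ _ A W hW a
  classical
  have hmin0 : minpoly F A ≠ 0 := minpoly.ne_zero (Algebra.IsIntegral.isIntegral A)
  have hI : (ann A W).IsMaximal := ann_isMaximal hW (minpoly F A) hmin0 (minpoly.aeval F A)
  let _ : Field (F[X] ⧸ ann A W) := Ideal.Quotient.field (ann A W)
  have hWinv : Inv A W := hW.2.1
  obtain ⟨w₀, hw₀, hw₀0⟩ := irr_exists_ne hW.1
  have hL0 : ∀ g : F[X], g ∈ ann A W → aeval (A.restrict hWinv) g = 0 := by
    intro g hg
    ext w
    rw [aeval_restrict_apply, LinearMap.zero_apply, Submodule.coe_zero]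
    exact hg w w.2
  let L : (F[X] ⧸ ann A W) →ₐ[F] Module.End F W :=
    Ideal.Quotient.liftₐ (ann A W) (aeval (A.restrict hWinv)) hL0
  have hLmk : ∀ g : F[X], L (Ideal.Quotient.mk (ann A W) g) = aeval (A.restrict hWinv) g :=
    fun g => rfl
  let e₀ : (F[X] ⧸ ann A W) →ₗ[F] W :=
    (LinearMap.applyₗ (⟨w₀, hw₀⟩ : W)).comp L.toLinearMap
  have he₀ : ∀ x, e₀ x = (L x) ⟨w₀, hw₀⟩ := fun x => rfl
  have hinj : Function.Injective e₀ := by
    rw [← LinearMap.ker_eq_bot, LinearMap.ker_eq_bot']
    intro x hx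
    obtain ⟨g, rfl⟩ := Ideal.Quotient.mk_surjective x
    rw [he₀, hLmk] at hx
    have h1 : aeval A g w₀ = 0 := by
      have h2 := congrArg Subtype.val hx
      rw [aeval_restrict_apply] at h2
      exact h2
    exact Ideal.Quotient.eq_zero_iff_mem.mpr ((irr_ann_iff hW hw₀ hw₀0 g).mpr h1)
  have hsurj : Function.Surjective e₀ := by
    intro w
    have hw : (w : V) ∈ cyc A w₀ := by
      rw [irr_eq_cyc hW hw₀ hw₀0]
      exact w.2
    obtain ⟨g, hg⟩ := mem_cyc.mp hw
    refine ⟨Ideal.Quotient.mk (ann A W) g, ?_⟩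
    rw [he₀, hLmk]
    apply Subtype.ext
    rw [aeval_restrict_apply]
    exact hg
  let e : (F[X] ⧸ ann A W) ≃ₗ[F] W := LinearEquiv.ofBijective e₀ ⟨hinj, hsurj⟩
  have he : ∀ x, e x = (L x) ⟨w₀, hw₀⟩ := fun x => rfl
  have hfinW : Finite W := Module.finite_of_finite F
  have hfinK : Finite (F[X] ⧸ ann A W) := Finite.of_injective e e.injective
  obtain ⟨x, hx⟩ := FiniteField.norm_surjective F (F[X] ⧸ ann A W) a
  obtain ⟨p, rfl⟩ := Ideal.Quotient.mk_surjective x
  refine ⟨p, ?_⟩
  rw [← hx, Algebra.norm_apply]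
  have hconj : (aeval A p).restrict (inv_aeval hW.2.1 p)
      = (e : (F[X] ⧸ ann A W) →ₗ[F] W) ∘ₗ
        (Algebra.lmul F (F[X] ⧸ ann A W) (Ideal.Quotient.mk (ann A W) p)) ∘ₗ
        (e.symm : W →ₗ[F] (F[X] ⧸ ann A W)) := by
    apply LinearMap.ext
    intro w
    obtain ⟨y, rfl⟩ := e.surjective w
    rw [LinearMap.comp_apply, LinearMap.comp_apply, LinearEquiv.coe_coe, LinearEquiv.coe_coe,
      LinearEquiv.symm_apply_apply, Algebra.coe_lmul_eq_mul, LinearMap.mul_apply', he, he,
      map_mul, Module.End.mul_apply, hLmk]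
    apply Subtype.ext
    exact (aeval_restrict_apply hWinv p _).symm
  rw [hconj, LinearMap.det_conj]

end Cfsg.Agent.Lib.Helper72.OFus
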